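import Cfsg.Agent.Lib.RankTwo.QdSetting
import Cfsg.Agent.Lib.UniqueOrderP

/-! A group of `p`-rank at most two is not a proper extension of a `p`-group by `Qd(p)`, `p > 3`. -/

set_option autoImplicit false

namespace CfsgLib.RankTwo

open Subgroup Cfsg
open scoped commutatorElement Matrix

/-- Binomial expansion of a unipotent operator of order `p`. -/
theorem binom_lift {A : Type*} [AddCommGroup A] {p : ℕ} (hp : p.Prime) (hp3 : 3 < p)
    (D : AddMonoid.End A) (h : (D + 1) ^ p = 1) (hD2 : ∀ w, ∃ b, D (D w) = p • b) (w : A) :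
    ∃ e, p • D w = p • p • e := by
  let M : AddSubgroup A := (nsmulAddMonoidHom (p * p)).range
  have h2 : ∀ k, 2 ≤ k → ∀ u, ∃ b, (D ^ k) u = p • b := by
    intro k hk u
    obtain ⟨j, rfl⟩ := Nat.exists_eq_add_of_le' hk
    obtain ⟨b, hb⟩ := hD2 u
    exact ⟨(D ^ j) b, by rw [pow_add, sq]; exact (congrArg (D ^ j) hb).trans (map_nsmul _ _ _)⟩
  have h4 : ∀ k, 4 ≤ k → (D ^ k) w ∈ M := by
    intro k hk
    obtain ⟨j, rfl⟩ := Nat.exists_eq_add_of_le' hk
    obtain ⟨b, hb⟩ := h2 2 le_rfl w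
    obtain ⟨b', hb'⟩ := h2 (j + 2) (by omega) b
    refine ⟨b', ?_⟩
    show (p * p) • b' = _
    have : (D ^ (j + 4)) w = (D ^ (j + 2)) ((D ^ 2) w) := by
      rw [show j + 4 = (j + 2) + 2 by omega, pow_add]; rfl
    rw [this, hb, map_nsmul, hb', mul_nsmul]
  have hsum := DFunLike.congr_fun ((Commute.one_right D).add_pow p) w
  rw [h] at hsum
  have hsum' : w = ∑ k ∈ Finset.range (p + 1), p.choose k • (D ^ k) w := by
    refine (show w = (1 : AddMonoid.End A) w from rfl).trans (hsum.trans ?_)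
    refine (AddMonoidHom.finset_sum_apply _ _ _).trans ?_
    refine Finset.sum_congr rfl fun k _ => ?_
    rw [one_pow, mul_one, ← nsmul_eq_mul']
    rfl
  obtain ⟨q, hq⟩ : ∃ q, p + 1 = q + 2 := ⟨p - 1, by omega⟩
  rw [hq, Finset.sum_range_succ', Finset.sum_range_succ'] at hsum'
  simp only [zero_add, Nat.choose_zero_right, Nat.choose_one_right, pow_zero, pow_one, one_nsmul]
    at hsum'
  have hmem : ∑ k ∈ Finset.range q, p.choose (k + 1 + 1) • (D ^ (k + 1 + 1)) w ∈ M := by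
    refine sum_mem fun k hk => ?_
    rw [Finset.mem_range] at hk
    rcases eq_or_lt_of_le (show k + 1 + 1 ≤ p by omega) with e | e
    · exact nsmul_mem (h4 _ (by omega)) _
    · obtain ⟨c, hc⟩ := hp.dvd_choose_self (k := k + 1 + 1) (by omega) e
      obtain ⟨b, hb⟩ := h2 (k + 1 + 1) (by omega) w
      refine ⟨c • b, ?_⟩
      show (p * p) • (c • b) = _
      rw [hc, hb, ← mul_nsmul, ← mul_nsmul]
      ring_nf
  obtain ⟨m, hm⟩ := hmem
  refine ⟨-m, ?_⟩
  have hm' : (p * p) • m = ∑ k ∈ Finset.range q, p.choose (k + 1 + 1) • (D ^ (k + 1 + 1)) w := hm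
  rw [← hm', mul_nsmul] at hsum'
  have h1 : (1 : AddMonoid.End A) w = w := rfl
  rw [h1] at hsum'
  have h0 : p • p • m + p • D w = 0 :=
    add_right_cancel (b := w) (by rw [zero_add]; exact hsum'.symm)
  rw [smul_neg, smul_neg]
  exact eq_neg_of_add_eq_zero_right h0

/-- Commutators fix an element spanning a normal cyclic subgroup. -/
theorem commutator_le_centralizer_of_line {H : Type*} [Group H] (K : Subgroup H) {a : H}
    (h : ∀ g ∈ K, g * a * g⁻¹ ∈ zpowers a) : ⁅K, K⁆ ≤ centralizer ({a} : Set H) := by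
  have key : ∀ g ∈ K, ∀ k ∈ K, g * k * a * (g * k)⁻¹ = k * g * a * (k * g)⁻¹ := by
    intro g hg k hk
    obtain ⟨i, hi⟩ := h g hg
    obtain ⟨j, hj⟩ := h k hk
    have hi' : g * a * g⁻¹ = a ^ i := hi.symm
    have hj' : k * a * k⁻¹ = a ^ j := hj.symm
    calc g * k * a * (g * k)⁻¹ = g * (k * a * k⁻¹) * g⁻¹ := by group
      _ = a ^ (i * j) := by rw [hj', ← conj_zpow, hi', ← zpow_mul]
      _ = k * (g * a * g⁻¹) * k⁻¹ := by rw [hi', ← conj_zpow, hj', ← zpow_mul, mul_comm]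
      _ = k * g * a * (k * g)⁻¹ := by group
  rw [Subgroup.commutator_le]
  intro g hg k hk
  have he := key g⁻¹ (inv_mem hg) k⁻¹ (inv_mem hk)
  rw [mem_centralizer_singleton_iff, commutatorElement_def]
  calc g * k * g⁻¹ * k⁻¹ * a
      = (k⁻¹ * g⁻¹)⁻¹ * (g⁻¹ * k⁻¹ * a * (g⁻¹ * k⁻¹)⁻¹) * (g⁻¹ * k⁻¹) := by group
    _ = a * (g * k * g⁻¹ * k⁻¹) := by rw [he]; group

variable {G : Type*} [Group G] [Finite G] {p : ℕ} [hp : Fact p.Prime]
  (π : G →* ↥(CfsgLib.Qd.aff (ZMod p)))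

theorem two_ne_zero' (hp3 : 3 < p) : (2 : ZMod p) ≠ 0 := by
  intro h
  have : p ∣ 2 := (ZMod.natCast_eq_zero_iff 2 p).mp (by simpa using h)
  exact absurd (Nat.le_of_dvd two_pos this) (by omega)

theorem isPGroup_lin_ker (hU : IsPGroup p π.ker) : IsPGroup p (lin π).ker := by
  rintro ⟨w, hw⟩
  have h1 : w ^ p ∈ π.ker := mem_ker_of_tr π (pow_mem hw p) (by
    rw [tr_pow π hw]
    funext i
    rw [Pi.smul_apply, nsmul_eq_mul, ZMod.natCast_self, zero_mul, Pi.zero_apply])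
  obtain ⟨k, hk⟩ := hU ⟨_, h1⟩
  refine ⟨k + 1, Subtype.ext ?_⟩
  have := congrArg Subtype.val hk
  simp only [Subgroup.coe_pow, Subgroup.coe_one] at this ⊢
  rw [pow_succ', pow_mul]
  exact this

theorem not_isCyclic_lin_ker (hπ : Function.Surjective π) : ¬ IsCyclic (lin π).ker := by
  intro hc
  obtain ⟨⟨g, hg⟩, hgen⟩ := IsCyclic.exists_generator (α := (lin π).ker)
  have key : ∀ v : Fin 2 → ZMod p, ∃ n : ℤ, v = n • tr π g := by
    intro v
    obtain ⟨w, hw, rfl⟩ := tr_surjective π hπ v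
    obtain ⟨n, hn⟩ := hgen ⟨w, hw⟩
    refine ⟨n, ?_⟩
    rw [← tr_zpow π hg]
    exact congrArg (tr π) (congrArg Subtype.val hn).symm
  obtain ⟨m, hm⟩ := key ![1, 0]
  obtain ⟨n, hn⟩ := key ![0, 1]
  have a0 := congrFun hm 0
  have a1 := congrFun hm 1
  have b0 := congrFun hn 0
  have b1 := congrFun hn 1
  simp only [Pi.smul_apply, zsmul_eq_mul, Matrix.cons_val_zero, Matrix.cons_val_one,
    Matrix.cons_val_fin_one] at a0 a1 b0 b1
  exact one_ne_zero (α := ZMod p) (by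
    linear_combination (n : ZMod p) * tr π g 1 * a0 - (n : ZMod p) * tr π g 0 * a1 + b1)

/-- the matrix `-1` -/
def negM : Matrix.SpecialLinearGroup (Fin 2) (ZMod p) :=
  ⟨!![-1, 0; 0, -1], by simp [Matrix.det_fin_two_of]⟩

theorem negM_coe :
    ((negM : Matrix.SpecialLinearGroup (Fin 2) (ZMod p)) : Matrix (Fin 2) (Fin 2) (ZMod p))
      = !![-1, 0; 0, -1] := rfl

theorem negM_mul_self : (negM : Matrix.SpecialLinearGroup (Fin 2) (ZMod p)) * negM = 1 :=
  Subtype.ext (by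
    rw [Matrix.SpecialLinearGroup.coe_mul, negM_coe, Matrix.SpecialLinearGroup.coe_one]
    ext i j; fin_cases i <;> fin_cases j <;> simp)

theorem negM_comm (A : Matrix.SpecialLinearGroup (Fin 2) (ZMod p)) : negM * A = A * negM :=
  Subtype.ext (by
    rw [Matrix.SpecialLinearGroup.coe_mul, Matrix.SpecialLinearGroup.coe_mul, negM_coe]
    ext i j; fin_cases i <;> fin_cases j <;> simp [Matrix.mul_apply, Fin.sum_univ_two])

theorem exists_involution (hp3 : 3 < p) (hπ : Function.Surjective π) (hU : IsPGroup p π.ker) :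
    ∃ t : G, t * t = 1 ∧ lin π t = negM := by
  obtain ⟨g, hg⟩ := lin_surjective π hπ negM
  obtain ⟨k, hk⟩ := isPGroup_lin_ker π hU ⟨g * g, by
    rw [MonoidHom.mem_ker, map_mul, hg, negM_mul_self]⟩
  refine ⟨g ^ p ^ k, ?_, ?_⟩
  · rw [← (Commute.refl g).mul_pow]; exact congrArg Subtype.val hk
  · obtain ⟨m, hm⟩ : Odd (p ^ k) := (hp.out.odd_of_ne_two (by omega)).pow
    rw [map_pow, hg, hm, pow_succ, pow_mul, sq, negM_mul_self, one_pow, one_mul]

variable {t : G} (ht : t * t = 1) (htl : lin π t = negM)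

include ht in
theorem inv_t : t⁻¹ = t := inv_eq_of_mul_eq_one_right ht

include htl in
theorem tr_conj_t {w : G} (hw : w ∈ (lin π).ker) : tr π (t * w * t⁻¹) = - tr π w := by
  rw [tr_conj π t hw, htl, negM_coe, mulVec_two]
  funext i
  fin_cases i <;> simp

include htl in
theorem mem_ker_of_commute (hp3 : 3 < p) {w : G} (hw : w ∈ (lin π).ker) (hc : Commute t w) :
    w ∈ π.ker := by
  refine mem_ker_of_tr π hw ?_
  have h := tr_conj_t π htl hw
  rw [hc.eq, mul_inv_cancel_right] at h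
  funext i
  have h1 : (2 : ZMod p) * tr π w i = 0 := by
    have h3 : tr π w i = - tr π w i := congrFun h i
    linear_combination h3
  exact (mul_eq_zero.mp h1).resolve_left (two_ne_zero' hp3)

include ht htl in
theorem cover (hp3 : 3 < p) (hπ : Function.Surjective π) (hU : IsPGroup p π.ker)
    (A : Matrix.SpecialLinearGroup (Fin 2) (ZMod p)) : ∃ k : G, Commute t k ∧ lin π k = A := by
  obtain ⟨g, hg⟩ := lin_surjective π hπ A
  set a := t * g * t⁻¹ * g⁻¹ with ha
  have haW : a ∈ (lin π).ker := by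
    rw [MonoidHom.mem_ker, ha, map_mul, map_mul, map_mul, map_inv, map_inv, htl, hg, negM_comm,
      mul_inv_cancel_right, mul_inv_cancel]
  have hinv : t * a * t⁻¹ = a⁻¹ := by
    rw [ha]
    simp only [mul_inv_rev, inv_inv, mul_assoc, inv_t ht]
    rw [← mul_assoc t t, ht, one_mul]
  obtain ⟨n, hn⟩ := isPGroup_lin_ker π hU ⟨a, haW⟩
  have hn' : a ^ p ^ n = 1 := congrArg Subtype.val hn
  obtain ⟨m, hm⟩ : Odd (p ^ n) := (hp.out.odd_of_ne_two (by omega)).pow
  set b := a ^ (m + 1) with hb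
  have hbb : b * b = a := by
    rw [hb, ← pow_add, show m + 1 + (m + 1) = p ^ n + 1 by omega, pow_succ, hn', one_mul]
  refine ⟨b * g, ?_, ?_⟩
  · have h1 : t * b * t⁻¹ = b⁻¹ := by rw [hb, ← conj_pow, hinv, inv_pow]
    have h2 : t * (b * g) * t⁻¹ = b * g := by
      calc t * (b * g) * t⁻¹ = (t * b * t⁻¹) * (t * g * t⁻¹ * g⁻¹) * g := by group
        _ = b * g := by rw [h1, ← ha, ← hbb, inv_mul_cancel_left]
    exact mul_inv_eq_iff_eq_mul.mp h2
  · rw [map_mul, hg, MonoidHom.mem_ker.mp (pow_mem haW (m + 1) : b ∈ (lin π).ker), one_mul]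

include ht htl in
theorem fix_all (hp3 : 3 < p) (hU : IsPGroup p π.ker) {D : Subgroup G} (hD : D ≤ (lin π).ker)
    (hinv : ∀ d ∈ D, t * d * t⁻¹ ∈ D) (hfix : ∀ d ∈ D, d ^ p = 1 → Commute t d) {d : G}
    (hd : d ∈ D) : Commute t d ∧ d ∈ π.ker := by
  obtain ⟨β, hβ, hβo⟩ := CfsgLib.RigidAut.exists_restrict (MulAut.conj t) D hinv
  have hDp : IsPGroup p D := by
    rintro ⟨a, ha⟩
    obtain ⟨k, hk⟩ := isPGroup_lin_ker π hU ⟨a, hD ha⟩
    have hk' : a ^ p ^ k = 1 := congrArg Subtype.val hk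
    exact ⟨k, Subtype.ext hk'⟩
  have h2 : orderOf β ∣ 2 := hβo.trans (orderOf_dvd_of_pow_eq_one (by
    rw [← map_pow, sq, ht, map_one]))
  have hco : (orderOf β).Coprime p := Nat.Coprime.coprime_dvd_left h2
    ((Nat.coprime_primes Nat.prime_two hp.out).mpr (by omega))
  have h1 := CfsgLib.RigidAut.eq_one_of_fix_small _ rfl hDp β hco fun x hx => by
    rcases hx with hx | ⟨h, -⟩
    · refine Subtype.ext ?_
      rw [hβ]
      show t * (x : G) * t⁻¹ = x
      rw [(hfix x x.2 (congrArg Subtype.val hx)).eq, mul_inv_cancel_right]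
    · omega
  have h3 := hβ ⟨d, hd⟩
  rw [h1] at h3
  have hc : Commute t d := mul_inv_eq_iff_eq_mul.mp h3.symm
  exact ⟨hc, mem_ker_of_commute π htl hp3 (hD hd) hc⟩

include ht htl in
/-- Commutators of centralizing elements cover the linear part. -/
theorem commutator_cover (hp3 : 3 < p) (hπ : Function.Surjective π) (hU : IsPGroup p π.ker)
    (A : Matrix.SpecialLinearGroup (Fin 2) (ZMod p)) :
    ∃ k ∈ ⁅centralizer ({t} : Set G), centralizer ({t} : Set G)⁆, lin π k = A := by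
  have hK : (centralizer ({t} : Set G)).map (lin π) = ⊤ := by
    refine eq_top_iff.mpr fun B _ => ?_
    obtain ⟨k, hk, hkB⟩ := cover π ht htl hp3 hπ hU B
    exact ⟨k, mem_centralizer_singleton_iff.mpr hk.eq.symm, hkB⟩
  have h := Subgroup.map_commutator (centralizer ({t} : Set G)) (centralizer ({t} : Set G)) (lin π)
  rw [hK, ← commutator_def, commutator_SL2 hp3] at h
  have hA : A ∈ (⊤ : Subgroup (Matrix.SpecialLinearGroup (Fin 2) (ZMod p))) := mem_top A
  rw [← h] at hA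
  obtain ⟨k, hk, e⟩ := hA
  exact ⟨k, hk, e⟩

omit [Finite G] in
theorem conj_mem_lin_ker (g : G) {w : G} (hw : w ∈ (lin π).ker) : g * w * g⁻¹ ∈ (lin π).ker :=
  (inferInstance : (lin π).ker.Normal).conj_mem w hw g

include ht htl in
/-- A subgroup containing the translations and the commutators is everything. -/
theorem eq_top_of_le (hp3 : 3 < p) (hπ : Function.Surjective π) (hU : IsPGroup p π.ker)
    {H : Subgroup G} (h1 : (lin π).ker ≤ H)
    (h2 : ⁅centralizer ({t} : Set G), centralizer ({t} : Set G)⁆ ≤ H) (g : G) : g ∈ H := by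
  obtain ⟨k, hk, e⟩ := commutator_cover π ht htl hp3 hπ hU (lin π g)
  have hw : k⁻¹ * g ∈ (lin π).ker := by rw [MonoidHom.mem_ker, map_mul, map_inv, e, inv_mul_cancel]
  simpa using mul_mem (h2 hk) (h1 hw)

theorem ker_eq_bot_of_pow {U : Subgroup G} (hU : IsPGroup p U)
    (h : ∀ u ∈ U, u ^ p = 1 → u = 1) : U = ⊥ := by
  rw [Subgroup.eq_bot_iff_forall]
  intro u hu
  obtain ⟨k, hk⟩ := hU ⟨u, hu⟩
  have hk' : u ^ p ^ k = 1 := congrArg Subtype.val hk
  clear hk
  induction k generalizing u with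
  | zero => simpa using hk'
  | succ k ih =>
    refine h u hu (ih (u ^ p) (pow_mem hu p) ?_)
    rw [← pow_mul, ← pow_succ']; exact hk'

omit [Finite G] in
theorem tr_pow_p {a : G} (ha : a ∈ (lin π).ker) : tr π (a ^ p) = 0 := by
  rw [tr_pow π ha]
  funext i
  rw [Pi.smul_apply, nsmul_eq_mul, ZMod.natCast_self, zero_mul, Pi.zero_apply]

/-- An elementary abelian subgroup covering the translations meets the kernel trivially. -/
theorem eq_one_of_tr_surj (hr : Cfsg.PRankLE p 2 G) {A : Subgroup G}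
    (hA : IsElementaryAbelian p A) (hAW : A ≤ (lin π).ker) (hs : ∀ v, ∃ a ∈ A, tr π a = v) {a : G}
    (ha : a ∈ A) (h : tr π a = 0) : a = 1 := by
  classical
  let f : A → (Fin 2 → ZMod p) := fun a => tr π a
  have hsurj : Function.Surjective f := fun v => by
    obtain ⟨a, ha, e⟩ := hs v; exact ⟨⟨a, ha⟩, e⟩
  have hc : Nat.card A ≤ Nat.card (Fin 2 → ZMod p) := by
    refine (hr A hA.1 hA.2).trans ?_
    rw [Nat.card_fun, Nat.card_zmod, Nat.card_eq_fintype_card, Fintype.card_fin]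
  have hbij : Function.Bijective f :=
    (Nat.bijective_iff_surjective_and_card f).mpr
      ⟨hsurj, le_antisymm hc (Nat.card_le_card_of_surjective f hsurj)⟩
  have := hbij.1 (a₁ := ⟨a, ha⟩) (a₂ := ⟨1, one_mem A⟩) (show tr π a = tr π 1 by rw [h, tr_one])
  exact congrArg Subtype.val this

omit [Finite G] in
theorem el_pair {x y : G} (hxy : Commute x y) (hx : x ^ p = 1) (hy : y ^ p = 1) :
    IsElementaryAbelian p (zpowers x ⊔ zpowers y) := by
  refine CfsgLib.PLocal.el_sup (CfsgLib.PLocal.el_zpowers hx) (CfsgLib.PLocal.el_zpowers hy) ?_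
  rintro _ ⟨i, rfl⟩ _ ⟨j, rfl⟩
  exact (hxy.zpow_zpow i j).eq

omit [Finite G] hp in
theorem eq_one_of_inv_eq {e : G} {n : ℕ} (hn : Odd n) (h : e ^ n = 1) (h2 : e⁻¹ = e) : e = 1 := by
  obtain ⟨m, rfl⟩ := hn
  have he : e ^ 2 = 1 := by
    rw [sq]
    nth_rw 1 [← h2]
    exact inv_mul_cancel e
  rwa [pow_succ, pow_mul, he, one_pow, one_mul] at h

include ht htl in
/-- The case that `C ≤ U` is central: `t` inverts the translation group. -/
theorem inverted_false (hp3 : 3 < p) (hπ : Function.Surjective π) (hU : IsPGroup p π.ker)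
    (hr : Cfsg.PRankLE p 2 G) {x y : G} (hxy : Commute x y) (hx : x ^ p = 1) (hy : y ^ p = 1)
    (hx1 : x ≠ 1) (hyx : y ∉ zpowers x)
    (hAU : zpowers x ⊔ zpowers y ≤ π.ker)
    (hmem : ∀ w ∈ (lin π).ker, w ^ p = 1 → w ∈ zpowers x ⊔ zpowers y)
    (hfix : ∀ w ∈ (lin π).ker, w ^ p = 1 → Commute t w → w = 1) : False := by
  classical
  set W := (lin π).ker with hW
  have hfix' : ∀ w ∈ W, Commute t w → w = 1 := by
    intro w hw hc
    obtain ⟨k, hk⟩ := isPGroup_lin_ker π hU ⟨w, hw⟩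
    have hk' : w ^ p ^ k = 1 := congrArg Subtype.val hk
    clear hk
    induction k generalizing w with
    | zero => simpa using hk'
    | succ k ih =>
      refine hfix w hw ?_ hc
      exact ih (w ^ p) (pow_mem hw p) (hc.pow_right p) (by rw [← pow_mul, ← pow_succ']; exact hk')
  let φ : W → W := fun w => ⟨(w : G)⁻¹ * (t * w * t⁻¹),
    mul_mem (inv_mem w.2) (conj_mem_lin_ker π t w.2)⟩
  have hφ : Function.Surjective φ := by
    refine Finite.surjective_of_injective fun a b hab => ?_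
    have h' : (a : G)⁻¹ * (t * a * t⁻¹) = (b : G)⁻¹ * (t * b * t⁻¹) := congrArg Subtype.val hab
    have h1 : t * ((b : G) * (a : G)⁻¹) * t⁻¹ = (b : G) * (a : G)⁻¹ := by
      calc t * ((b : G) * (a : G)⁻¹) * t⁻¹
          = (t * b * t⁻¹) * (t * a * t⁻¹)⁻¹ := by group
        _ = (b : G) * ((b : G)⁻¹ * (t * b * t⁻¹)) * ((a : G)⁻¹ * (t * a * t⁻¹))⁻¹ * (a : G)⁻¹ := by
            group
        _ = _ := by rw [← h']; group
    have h2 : (b : G) * (a : G)⁻¹ = 1 :=
      hfix' _ (mul_mem b.2 (inv_mem a.2)) (mul_inv_eq_iff_eq_mul.mp h1)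
    exact Subtype.ext (mul_inv_eq_one.mp h2).symm
  have hinv : ∀ w ∈ W, t * w * t⁻¹ = w⁻¹ := by
    intro w hw
    obtain ⟨a, ha⟩ := hφ ⟨w, hw⟩
    have ha' : (a : G)⁻¹ * (t * a * t⁻¹) = w := congrArg Subtype.val ha
    rw [← ha']
    calc t * ((a : G)⁻¹ * (t * a * t⁻¹)) * t⁻¹
        = (t * a * t⁻¹)⁻¹ * (t * t) * a * (t * t)⁻¹ := by group
      _ = _ := by rw [ht, inv_one, mul_one, mul_one]; group
  have hab : ∀ a b : W, a * b = b * a := by
    intro a b
    refine Subtype.ext ?_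
    have h1 : t * ((a : G) * b) * t⁻¹ = (a : G)⁻¹ * (b : G)⁻¹ := by
      rw [← hinv _ a.2, ← hinv _ b.2]; group
    rw [hinv _ (mul_mem a.2 b.2), mul_inv_rev] at h1
    calc (a : G) * b = ((b : G)⁻¹ * (a : G)⁻¹)⁻¹ := by group
      _ = (b : G) * a := by rw [h1]; group
  letI : CommGroup W := { (inferInstance : Group W) with mul_comm := hab }
  -- the kernel is the image of the `p`-th power map
  let P : W →* W := powMonoidHom p
  have hker : ∀ w : W, w ∈ P.ker ↔ (w : G) ∈ zpowers x ⊔ zpowers y := by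
    intro w
    constructor
    · intro h
      exact hmem w w.2 (congrArg Subtype.val (MonoidHom.mem_ker.mp h))
    · intro h
      refine MonoidHom.mem_ker.mpr (Subtype.ext ?_)
      exact (el_pair hxy hx hy).2 _ h
  let trW : W →* Multiplicative (Fin 2 → ZMod p) :=
    { toFun := fun w => Multiplicative.ofAdd (tr π (w : G))
      map_one' := by simp [tr_one]
      map_mul' := fun a b => congrArg Multiplicative.ofAdd (tr_mul π a.2 b) }
  have htrW : Function.Surjective trW := fun v => by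
    obtain ⟨w, hw, e⟩ := tr_surjective π hπ v.toAdd
    exact ⟨⟨w, hw⟩, congrArg Multiplicative.ofAdd e⟩
  have hle : P.range ≤ trW.ker := by
    rintro _ ⟨a, rfl⟩
    refine MonoidHom.mem_ker.mpr ?_
    show Multiplicative.ofAdd (tr π ((a : G) ^ p)) = 1
    rw [tr_pow_p π a.2, ofAdd_zero]
  have heq : P.range = trW.ker := by
    refine Subgroup.eq_of_le_of_card_ge hle ?_
    have c1 := (P.ker).card_eq_card_quotient_mul_card_subgroup
    have c2 := (trW.ker).card_eq_card_quotient_mul_card_subgroup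
    rw [Nat.card_congr (QuotientGroup.quotientKerEquivRange P).toEquiv] at c1
    rw [Nat.card_congr (QuotientGroup.quotientKerEquivOfSurjective trW htrW).toEquiv,
      show Nat.card (Multiplicative (Fin 2 → ZMod p)) = Nat.card (Fin 2 → ZMod p) from rfl,
      Nat.card_fun, Nat.card_zmod, Nat.card_fin] at c2
    have c3 : Nat.card P.ker ≤ p ^ 2 := by
      have hA := el_pair hxy hx hy
      refine le_trans ?_ (hr _ hA.1 hA.2)
      refine Nat.card_le_card_of_injective (fun w => (⟨((w : W) : G), (hker w).mp w.2⟩ : ↥(zpowers x ⊔ zpowers y))) ?_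
      intro a b h
      exact Subtype.ext (Subtype.ext (congrArg (fun q : ↥(zpowers x ⊔ zpowers y) => (q : G)) h :))
    rw [c2] at c1
    have c4 : p ^ 2 * Nat.card trW.ker ≤ p ^ 2 * Nat.card P.range := by
      rw [c1, mul_comm (p ^ 2)]; exact Nat.mul_le_mul_left _ c3
    exact Nat.le_of_mul_le_mul_left c4 (pow_pos hp.out.pos 2)
  have hdiv : ∀ w : W, tr π (w : G) = 0 → ∃ b : W, b ^ p = w := by
    intro w hw
    have h1 : w ∈ trW.ker := MonoidHom.mem_ker.mpr (by
      show Multiplicative.ofAdd (tr π (w : G)) = 1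
      rw [hw, ofAdd_zero])
    rw [← heq] at h1
    exact h1
  -- the operator
  obtain ⟨v, hv, hvl⟩ := cover π ht htl hp3 hπ hU (upM 1)
  have hvp : v ^ p = 1 := hfix' _ (by rw [hW, MonoidHom.mem_ker, map_pow, hvl, upM_one_pow])
    (hv.pow_right p)
  let T : AddMonoid.End (Additive W) := MonoidHom.toAdditive
    (MulAut.conjNormal v : MulAut W).toMonoidHom
  let D : AddMonoid.End (Additive W) := T - 1
  have hT : ∀ (n : ℕ) (w : Additive W), (((T ^ n) w).toMul : G) = v ^ n * (w.toMul : G) * (v ^ n)⁻¹ := by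
    intro n
    induction n with
    | zero => intro w; simp
    | succ n ih =>
      intro w
      rw [pow_succ]
      show (((T ^ n) (T w)).toMul : G) = _
      rw [ih (T w)]
      show v ^ n * ((MulAut.conjNormal v w.toMul : W) : G) * (v ^ n)⁻¹ = _
      rw [MulAut.conjNormal_apply, pow_succ]
      group
  have hTp : T ^ p = 1 := by
    refine AddMonoidHom.ext fun w => Additive.toMul.injective (Subtype.ext ((hT p w).trans ?_))
    rw [hvp, inv_one, one_mul, mul_one]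
    rfl
  have hDv : ∀ w : Additive W, tr π ((D w).toMul : G) = ![tr π (w.toMul : G) 1, 0] := by
    intro w
    have h1 : ((D w).toMul : G) = v * (w.toMul : G) * v⁻¹ * (w.toMul : G)⁻¹ := by
      show ((T w).toMul / w.toMul : W).1 = _
      rw [div_eq_mul_inv, Subgroup.coe_mul, Subgroup.coe_inv]
      have := hT 1 w
      rw [pow_one, pow_one] at this
      rw [this]
    rw [h1, tr_mul π (conj_mem_lin_ker π v w.toMul.2), tr_inv π w.toMul.2, tr_conj π v w.toMul.2,
      hvl, upM_coe, mulVec_two]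
    funext i
    fin_cases i <;> simp
  have hD2 : ∀ w, ∃ b, D (D w) = p • b := by
    intro w
    obtain ⟨b, hb⟩ := hdiv (D (D w)).toMul (by
      rw [hDv, hDv]; funext i; fin_cases i <;> simp)
    exact ⟨Additive.ofMul b, Additive.toMul.injective hb.symm⟩
  obtain ⟨w, hw, hwt⟩ := tr_surjective π hπ ![0, 1]
  obtain ⟨e, he⟩ := binom_lift hp.out hp3 D (by rw [sub_add_cancel]; exact hTp) hD2
    (Additive.ofMul ⟨w, hw⟩)
  set a : W := (D (Additive.ofMul ⟨w, hw⟩)).toMul
  have he' : a ^ p = (e.toMul ^ p) ^ p := congrArg Additive.toMul he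
  have hzero : (a * (e.toMul ^ p)⁻¹) ∈ P.ker := MonoidHom.mem_ker.mpr (by
    show (a * (e.toMul ^ p)⁻¹) ^ p = 1
    rw [mul_pow, inv_pow, he', mul_inv_cancel])
  have h0 : tr π ((a * (e.toMul ^ p)⁻¹ : W) : G) = 0 := tr_of_mem_ker π (hAU ((hker _).mp hzero))
  rw [Subgroup.coe_mul, tr_mul π a.2, Subgroup.coe_inv, Subgroup.coe_pow,
    tr_inv π (pow_mem e.toMul.2 p), tr_pow_p π e.toMul.2, neg_zero, add_zero, hDv] at h0
  have := congrFun h0 0
  simp [hwt] at this

include ht htl in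
/-- The case of a central `C`. -/
theorem central_case (hp3 : 3 < p) (hπ : Function.Surjective π) (hU : IsPGroup p π.ker)
    (hr : Cfsg.PRankLE p 2 G) {x y : G} (hxW : x ∈ (lin π).ker) (hyW : y ∈ (lin π).ker)
    (hx : x ^ p = 1) (hy : y ^ p = 1) (hx1 : x ≠ 1) (hyx : y ∉ zpowers x)
    (hxc : ∀ w ∈ (lin π).ker, Commute x w) (hyc : ∀ w ∈ (lin π).ker, Commute y w) :
    π.ker = ⊥ := by
  set W := (lin π).ker with hW
  set A := zpowers x ⊔ zpowers y with hA
  have hxy : Commute x y := hxc y hyW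
  have hAW : A ≤ W := sup_le (zpowers_le.mpr hxW) (zpowers_le.mpr hyW)
  have hAel := el_pair hxy hx hy
  have hmem : ∀ w ∈ W, w ^ p = 1 → w ∈ A := fun w hw hwp =>
    mem_of_rank hr hx hy hwp hx1 hyx hxy (hxc w hw) (hyc w hw)
  have hcen : ∀ a ∈ A, ∀ w ∈ W, Commute a w := fun a ha w hw => by
    have hle : A ≤ centralizer ({w} : Set G) := sup_le
      (zpowers_le.mpr (mem_centralizer_singleton_iff.mpr (hxc w hw).eq))
      (zpowers_le.mpr (mem_centralizer_singleton_iff.mpr (hyc w hw).eq))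
    exact mem_centralizer_singleton_iff.mp (hle ha)
  have hAn : ∀ g : G, ∀ a ∈ A, g * a * g⁻¹ ∈ A := fun g a ha =>
    hmem _ (conj_mem_lin_ker π g (hAW ha)) (by
      rw [conj_pow, show a ^ p = 1 from hAel.2 a ha, mul_one, mul_inv_cancel])
  rcases irreducible π hπ hAW hAn with hAU | hs
  swap
  · refine ker_eq_bot_of_pow hU fun u hu hup => ?_
    exact eq_one_of_tr_surj π hr hAel hAW hs (hmem u (ker_le π hu) hup) (tr_of_mem_ker π hu)
  exfalso
  refine inverted_false π ht htl hp3 hπ hU hr hxy hx hy hx1 hyx hAU hmem fun e he hep hec => ?_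
  by_contra he1
  have hodd : Odd p := hp.out.odd_of_ne_two (by omega)
  -- a vector inverted by `t`
  obtain ⟨c, hcA, hct⟩ : ∃ c ∈ A, ¬ Commute t c := by
    by_contra hall
    push Not at hall
    obtain ⟨w, hw, hwt⟩ := tr_surjective π hπ ![1, 0]
    have := (fix_all π ht htl hp3 hU le_rfl (fun d hd => conj_mem_lin_ker π t hd)
      (fun d hd hdp => hall d (hmem d hd hdp)) hw).2
    have h0 := tr_of_mem_ker π this
    rw [hwt] at h0
    exact one_ne_zero (congrFun h0 0)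
  set d := c * (t * c * t⁻¹)⁻¹ with hd
  have hdA : d ∈ A := mul_mem hcA (inv_mem (hAn t c hcA))
  have hd1 : d ≠ 1 := fun h => hct (mul_inv_eq_iff_eq_mul.mp (mul_inv_eq_one.mp h).symm)
  have hcm : Commute c (t * c * t⁻¹)⁻¹ :=
    (hcen c hcA _ (conj_mem_lin_ker π t (hAW hcA))).inv_right
  have hdt : t * d * t⁻¹ = d⁻¹ := by
    calc t * d * t⁻¹ = (t * c * t⁻¹) * ((t * t) * c⁻¹ * (t * t)⁻¹) := by rw [hd]; group
      _ = (t * c * t⁻¹) * c⁻¹ := by rw [ht, inv_one, one_mul, mul_one]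
      _ = d⁻¹ := by rw [hd, mul_inv_rev, inv_inv]
  have heA : e ∈ A := hmem e he hep
  have hdp : d ^ p = 1 := hAel.2 d hdA
  have hde : Commute e d := hcen e heA d (hAW hdA)
  have hinvfix : ∀ g : G, g ^ p = 1 → t * g * t⁻¹ = g⁻¹ → Commute t g → g = 1 := fun g hg hg1 hg2 => by
    rw [hg2.eq, mul_inv_cancel_right] at hg1
    exact eq_one_of_inv_eq hodd hg hg1.symm
  have hdn : d ∉ zpowers e := by
    rintro ⟨k, hk⟩
    have h' : e ^ k = d := hk
    exact hd1 (hinvfix d hdp hdt (h' ▸ hec.zpow_right k))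
  have hspan : ∀ a ∈ A, ∃ i j : ℤ, a = e ^ i * d ^ j := fun a ha =>
    mem_sup_zpowers hde (mem_of_rank hr hep hdp (hAel.2 a ha) he1 hdn hde
      (hcen e heA a (hAW ha)) (hcen d hdA a (hAW ha)))
  set K := centralizer ({t} : Set G)
  have hKe : ∀ k ∈ K, k * e * k⁻¹ ∈ zpowers e := by
    intro k hk
    have hkt : Commute t k := (mem_centralizer_singleton_iff.mp hk).symm
    obtain ⟨i, j, hij⟩ := hspan _ (hAn k e heA)
    have h1 : Commute t (k * e * k⁻¹) := (hkt.mul_right hec).mul_right hkt.inv_right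
    have h2 : Commute t (d ^ j) := by
      have := (hec.zpow_right i).inv_right.mul_right h1
      rwa [hij, inv_mul_cancel_left] at this
    have h3 : d ^ j = 1 := hinvfix _ (by rw [← zpow_natCast, ← zpow_mul, mul_comm, zpow_mul, zpow_natCast, hdp, one_zpow])
      (by rw [← conj_zpow, hdt, inv_zpow]) h2
    rw [hij, h3, mul_one]
    exact zpow_mem_zpowers e i
  have hKd : ∀ k ∈ K, k * d * k⁻¹ ∈ zpowers d := by
    intro k hk
    have hkt : Commute t k := (mem_centralizer_singleton_iff.mp hk).symm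
    obtain ⟨i, j, hij⟩ := hspan _ (hAn k d hdA)
    have h1 : t * (k * d * k⁻¹) * t⁻¹ = (k * d * k⁻¹)⁻¹ := by
      calc t * (k * d * k⁻¹) * t⁻¹ = (t * k * t⁻¹) * (t * d * t⁻¹) * (t * k * t⁻¹)⁻¹ := by group
        _ = _ := by rw [hdt, hkt.eq, mul_inv_cancel_right]; group
    rw [hij, ← conj_mul, ← conj_zpow, ← conj_zpow, hec.eq, mul_inv_cancel_right, hdt, inv_zpow,
      mul_inv_rev (e ^ i) (d ^ j), ← (hde.zpow_zpow i j).inv_inv.eq] at h1
    have h2 : (e ^ i)⁻¹ = e ^ i := (mul_right_cancel h1).symm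
    have h3 : e ^ i = 1 := eq_one_of_inv_eq hodd (by rw [← zpow_natCast, ← zpow_mul, mul_comm, zpow_mul, zpow_natCast, hep, one_zpow]) h2
    rw [hij, h3, one_mul]
    exact zpow_mem_zpowers d j
  have hWd : W ≤ centralizer ({d} : Set G) := fun w hw =>
    mem_centralizer_singleton_iff.mpr (hcen d hdA w hw).eq.symm
  have htd := mem_centralizer_singleton_iff.mp
    (eq_top_of_le π ht htl hp3 hπ hU hWd (commutator_le_centralizer_of_line K hKd) t)
  exact hd1 (hinvfix d hdp hdt htd)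

omit [Finite G] in
theorem eq_top_of_commutator_le (hπ : Function.Surjective π) (hp3 : 3 < p) {H : Subgroup G}
    (h1 : (lin π).ker ≤ H) (h2 : commutator G ≤ H) (g : G) : g ∈ H := by
  have h := Subgroup.map_commutator (⊤ : Subgroup G) ⊤ (lin π)
  rw [Subgroup.map_top_of_surjective _ (lin_surjective π hπ), ← commutator_def, ← commutator_def,
    commutator_SL2 hp3] at h
  have hA : lin π g ∈ (⊤ : Subgroup (Matrix.SpecialLinearGroup (Fin 2) (ZMod p))) := mem_top _
  rw [← h] at hA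
  obtain ⟨k, hk, e⟩ := hA
  have hw : k⁻¹ * g ∈ (lin π).ker := by rw [MonoidHom.mem_ker, map_mul, map_inv, e, inv_mul_cancel]
  simpa using mul_mem (h2 hk) (h1 hw)

omit [Finite G] in
theorem commutator_le_centralizer_of_line' {H : Type*} [Group H] {a : H}
    (h : ∀ g : H, g * a * g⁻¹ ∈ zpowers a) : commutator H ≤ centralizer ({a} : Set H) :=
  commutator_le_centralizer_of_line ⊤ fun g _ => h g

omit hp in
theorem zpow_pow_eq_one {a : G} {n : ℕ} (h : a ^ n = 1) (i : ℤ) : (a ^ i) ^ n = 1 := by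
  rw [← zpow_natCast, ← zpow_mul, mul_comm, zpow_mul, zpow_natCast, h, one_zpow]

/-- A power of an element of order `p` is trivial or generates the same group. -/
theorem mem_zpowers_zpow {a : G} (ha : a ^ p = 1) (i : ℤ) (hi : a ^ i ≠ 1) :
    a ∈ zpowers (a ^ i) := by
  have ha1 : a ≠ 1 := fun e => hi (by rw [e, one_zpow])
  have h : zpowers (a ^ i) = zpowers a := Subgroup.eq_of_le_of_card_ge
    (zpowers_le.mpr (zpow_mem_zpowers a i)) (by
      rw [Nat.card_zpowers, Nat.card_zpowers, orderOf_eq_prime ha ha1,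
        orderOf_eq_prime (zpow_pow_eq_one ha i) hi])
  rw [h]
  exact mem_zpowers a

/-- Central elements of exponent `p` lie in one line, if there is a non-central one of exponent `p`. -/
theorem central_mem_zpowers (hr : Cfsg.PRankLE p 2 G) {z y c : G} (hyW : y ∈ (lin π).ker)
    (hcW : c ∈ (lin π).ker) (hzW : z ∈ (lin π).ker) (hz : z ^ p = 1) (hy : y ^ p = 1) (hc : c ^ p = 1)
    (hz1 : z ≠ 1) (hzc : ∀ w ∈ (lin π).ker, Commute z w) (hcc : ∀ w ∈ (lin π).ker, Commute c w)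
    (hync : ¬ ∀ w ∈ (lin π).ker, Commute y w) : c ∈ zpowers z := by
  have hyz : y ∉ zpowers z := by
    rintro ⟨i, rfl⟩
    exact hync fun w hw => (hzc w hw).zpow_left i
  have hzy := hzc y hyW
  obtain ⟨i, j, hij⟩ := mem_sup_zpowers hzy
    (mem_of_rank hr hz hy hc hz1 hyz hzy (hzc c hcW) (hcc y hyW).symm)
  by_cases hj : y ^ j = 1
  · rw [hij, hj, mul_one]; exact zpow_mem_zpowers z i
  exfalso
  refine hync fun w hw => ?_
  have h1 : Commute (y ^ j) w := by
    have e : y ^ j = (z ^ i)⁻¹ * c := by rw [hij, inv_mul_cancel_left]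
    rw [e]
    exact ((hzc w hw).zpow_left i).inv_left.mul_left (hcc w hw)
  obtain ⟨k, hk⟩ := mem_zpowers_zpow hy j hj
  have hk' : (y ^ j) ^ k = y := hk
  exact hk' ▸ h1.zpow_left k

include ht htl in
/-- The case of a non-central abelian `C`. -/
theorem abelian_case (hp3 : 3 < p) (hπ : Function.Surjective π) (hU : IsPGroup p π.ker)
    (hr : Cfsg.PRankLE p 2 G) {C : Subgroup G} (hCW : C ≤ (lin π).ker)
    (hCn : ∀ g : G, ∀ c ∈ C, g * c * g⁻¹ ∈ C) (hCp : ∀ c ∈ C, c ^ p = 1)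
    (hCc : ∀ c ∈ C, ∀ w ∈ (lin π).ker, ∀ w' ∈ (lin π).ker, Commute ⁅w, c⁆ w')
    (hab : ∀ a ∈ C, ∀ b ∈ C, Commute a b) {x y : G} (hxC : x ∈ C) (hyC : y ∈ C) (hx1 : x ≠ 1)
    (hxc : ∀ w ∈ (lin π).ker, Commute x w) (hync : ¬ ∀ w ∈ (lin π).ker, Commute y w) : False := by
  set W := (lin π).ker with hW
  have hline : ∀ c ∈ C, (∀ w ∈ W, Commute c w) → c ∈ zpowers x := fun c hc hcc =>
    central_mem_zpowers π hr (hCW hyC) (hCW hc) (hCW hxC) (hCp x hxC) (hCp y hyC) (hCp c hc) hx1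
      hxc hcc hync
  have hxline : ∀ g : G, g * x * g⁻¹ ∈ zpowers x := fun g => hline _ (hCn g x hxC) fun w hw => by
    have h := hxc _ (conj_mem_lin_ker π g⁻¹ hw)
    rw [inv_inv] at h
    have h2 := h.map (MulAut.conj g).toMonoidHom
    simp only [MulEquiv.coe_toMonoidHom, MulAut.conj_apply] at h2
    convert h2 using 1
    group
  have hxG : ∀ g : G, Commute x g := fun g =>
    (mem_centralizer_singleton_iff.mp (eq_top_of_commutator_le π hπ hp3
      (H := centralizer ({x} : Set G)) (fun w hw => mem_centralizer_singleton_iff.mpr (hxc w hw).eq.symm)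
      (commutator_le_centralizer_of_line' hxline) g)).symm
  haveI hZn : (zpowers x).Normal := ⟨fun a ha g => by
    obtain ⟨k, rfl⟩ := ha
    show g * x ^ k * g⁻¹ ∈ zpowers x
    rw [((hxG g).zpow_left k).eq.symm, mul_inv_cancel_right]
    exact zpow_mem_zpowers x k⟩
  have hyx : y ∉ zpowers x := by
    rintro ⟨i, rfl⟩
    exact hync fun w hw => (hxc w hw).zpow_left i
  have hxy := hxG y
  have hspan : ∀ c ∈ C, ∃ i j : ℤ, c = x ^ i * y ^ j := fun c hc =>
    mem_sup_zpowers hxy (mem_of_rank hr (hCp x hxC) (hCp y hyC) (hCp c hc) hx1 hyx hxy (hxG c)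
      (hab y hyC c hc))
  -- `t` fixes `y`
  have hcomm : ∀ g : G, ⁅g, y⁆ ∈ zpowers x := by
    let q := QuotientGroup.mk' (zpowers x)
    let H : Subgroup G := (centralizer ({q y} : Set (G ⧸ zpowers x))).comap q
    have hmem : ∀ g : G, ⁅g, y⁆ ∈ zpowers x ↔ g ∈ H := by
      intro g
      rw [← QuotientGroup.eq_one_iff]
      show q ⁅g, y⁆ = 1 ↔ _
      rw [map_commutatorElement, commutatorElement_eq_one_iff_mul_comm, Subgroup.mem_comap,
        mem_centralizer_singleton_iff]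
    have h1 : W ≤ H := fun w hw => (hmem w).mp (hline _ (by
      rw [commutatorElement_def]; exact mul_mem (hCn w y hyC) (inv_mem hyC)) (hCc y hyC w hw))
    have h2 : commutator G ≤ H := by
      have hl : ∀ g : G ⧸ zpowers x, g * q y * g⁻¹ ∈ zpowers (q y) := by
        intro g
        obtain ⟨g, rfl⟩ := QuotientGroup.mk'_surjective _ g
        obtain ⟨i, j, hij⟩ := hspan _ (hCn g y hyC)
        show q g * q y * (q g)⁻¹ ∈ _
        rw [← map_inv, ← map_mul, ← map_mul, hij, map_mul, map_zpow, map_zpow,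
          show q x = 1 from (QuotientGroup.eq_one_iff x).mpr (mem_zpowers x), one_zpow, one_mul]
        exact zpow_mem_zpowers _ j
      rw [← Subgroup.map_le_iff_le_comap, commutator_def, Subgroup.map_commutator,
        Subgroup.map_top_of_surjective q (QuotientGroup.mk'_surjective _)]
      exact commutator_le_centralizer_of_line' hl
    exact fun g => (hmem g).mpr (eq_top_of_commutator_le π hπ hp3 h1 h2 g)
  have hty : Commute t y := by
    obtain ⟨i, hi⟩ := hcomm t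
    have hi' : t * y * t⁻¹ = x ^ i * y := by
      rw [show x ^ i = ⁅t, y⁆ from hi, commutatorElement_def]; group
    have h2 : x ^ i * (x ^ i * y) = y := by
      calc x ^ i * (x ^ i * y) = x ^ i * (t * y * t⁻¹) := by rw [hi']
        _ = t * (x ^ i * y) * t⁻¹ := by
            rw [← mul_assoc t, ← ((hxG t).zpow_left i).eq]; group
        _ = (t * t) * y * (t * t)⁻¹ := by rw [← hi']; group
        _ = y := by rw [ht, inv_one, one_mul, mul_one]
    rw [← mul_assoc, mul_eq_right] at h2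
    have h3 : x ^ i = 1 := eq_one_of_inv_eq (hp.out.odd_of_ne_two (by omega))
      (zpow_pow_eq_one (hCp x hxC) i) (inv_eq_of_mul_eq_one_right h2)
    rw [h3, one_mul] at hi'
    exact mul_inv_eq_iff_eq_mul.mp hi'
  set D := W ⊓ centralizer ({y} : Set G) with hD
  have hDfix : ∀ d ∈ D, d ∈ π.ker := by
    intro d hd
    refine (fix_all π ht htl hp3 hU (inf_le_left : D ≤ W) ?_ ?_ hd).2
    · intro a ha
      refine ⟨conj_mem_lin_ker π t ha.1, mem_centralizer_singleton_iff.mpr ?_⟩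
      have h1 : Commute a y := mem_centralizer_singleton_iff.mp ha.2
      exact ((hty.symm.mul_right h1.symm).mul_right hty.symm.inv_right).symm.eq
    · intro a ha hap
      obtain ⟨i, j, rfl⟩ := mem_sup_zpowers hxy (mem_of_rank hr (hCp x hxC) (hCp y hyC) hap hx1 hyx
        hxy (hxG a) (mem_centralizer_singleton_iff.mp ha.2).symm)
      exact ((hxG t).symm.zpow_right i).mul_right (hty.zpow_right j)
  let φ : W →* G := MonoidHom.mk' (fun w => ⁅(w : G), y⁆) fun a b => by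
    obtain ⟨k, hk⟩ := hcomm (b : G)
    have hk' : Commute (a : G) ⁅(b : G), y⁆ := by
      rw [show ⁅(b : G), y⁆ = x ^ k from hk.symm]
      exact ((hxG a).zpow_left k).symm
    have hk'' : Commute ⁅(a : G), y⁆ ⁅(b : G), y⁆ := by
      rw [show ⁅(b : G), y⁆ = x ^ k from hk.symm]
      exact ((hxG _).zpow_left k).symm
    show ⁅(a : G) * b, y⁆ = ⁅(a : G), y⁆ * ⁅(b : G), y⁆
    calc ⁅(a : G) * b, y⁆ = ((a : G) * ⁅(b : G), y⁆ * (a : G)⁻¹) * ⁅(a : G), y⁆ := by
          simp only [commutatorElement_def]; group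
      _ = _ := by rw [hk'.eq, mul_inv_cancel_right, hk''.eq]
  have hφ : ∀ w : W, φ w = 1 → tr π (w : G) = 0 := fun w hw => tr_of_mem_ker π (hDfix _
    ⟨w.2, mem_centralizer_singleton_iff.mpr (commutatorElement_eq_one_iff_mul_comm.mp hw)⟩)
  obtain ⟨w1, hw1, h1⟩ := tr_surjective π hπ ![1, 0]
  obtain ⟨w2, hw2, h2⟩ := tr_surjective π hπ ![0, 1]
  obtain ⟨k1, hk1⟩ := hcomm w1
  obtain ⟨k2, hk2⟩ := hcomm w2
  have e1 : φ ⟨w1, hw1⟩ = x ^ k1 := hk1.symm
  have e2 : φ ⟨w2, hw2⟩ = x ^ k2 := hk2.symm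
  by_cases hk : x ^ k1 = 1
  · have := hφ ⟨w1, hw1⟩ (e1.trans hk)
    rw [h1] at this
    exact one_ne_zero (congrFun this 0)
  have h3 := hφ (⟨w1, hw1⟩ ^ (-k2) * ⟨w2, hw2⟩ ^ k1) (by
    rw [map_mul, map_zpow, map_zpow, e1, e2, ← zpow_mul, ← zpow_mul, ← zpow_add,
      show k1 * -k2 + k2 * k1 = 0 by ring, zpow_zero])
  rw [Subgroup.coe_mul, Subgroup.coe_zpow, Subgroup.coe_zpow, tr_mul π (zpow_mem hw1 _),
    tr_zpow π hw1, tr_zpow π hw2, h1, h2] at h3
  have h4 := congrFun h3 1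
  simp at h4
  refine hk ?_
  obtain ⟨m, hm⟩ := (ZMod.intCast_zmod_eq_zero_iff_dvd k1 p).mp h4
  rw [hm, zpow_mul, zpow_natCast, hCp x hxC, one_zpow]

/-- The kernel of a surjective pair of coefficients. -/
theorem pair_injective {A B : Fin 2 → ZMod p}
    (hs : ∀ v, ∃ r s : ℤ, v = r • A + s • B) {r s : ℤ} (h : r • A + s • B = 0) :
    (p : ℤ) ∣ r ∧ (p : ℤ) ∣ s := by
  let f : ZMod p × ZMod p → (Fin 2 → ZMod p) := fun q => q.1 • A + q.2 • B
  have hf : ∀ r s : ℤ, f ((r : ZMod p), (s : ZMod p)) = r • A + s • B := fun r s => by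
    show (r : ZMod p) • A + (s : ZMod p) • B = _
    rw [Int.cast_smul_eq_zsmul, Int.cast_smul_eq_zsmul]
  have hsurj : Function.Surjective f := fun v => by
    obtain ⟨r, s, e⟩ := hs v; exact ⟨_, (hf r s).trans e.symm⟩
  have hbij : Function.Bijective f := (Nat.bijective_iff_surjective_and_card f).mpr ⟨hsurj, by
    rw [Nat.card_prod, Nat.card_fun, Nat.card_fin, Nat.card_zmod, sq]⟩
  have h0 := hbij.1 (a₁ := ((r : ZMod p), (s : ZMod p))) (a₂ := (0, 0)) (by
    rw [hf, h]; simp [f])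
  rw [Prod.ext_iff] at h0
  exact ⟨(ZMod.intCast_zmod_eq_zero_iff_dvd r p).mp h0.1,
    (ZMod.intCast_zmod_eq_zero_iff_dvd s p).mp h0.2⟩

include ht htl in
/-- The case of a non-abelian `C`. -/
theorem nonabelian_case (hp3 : 3 < p) (hπ : Function.Surjective π) (hU : IsPGroup p π.ker)
    (hr : Cfsg.PRankLE p 2 G) {C : Subgroup G} (hCW : C ≤ (lin π).ker)
    (hCn : ∀ g : G, ∀ c ∈ C, g * c * g⁻¹ ∈ C) (hCp : ∀ c ∈ C, c ^ p = 1)
    (hCc : ∀ c ∈ C, ∀ w ∈ (lin π).ker, ∀ w' ∈ (lin π).ker, Commute ⁅w, c⁆ w')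
    {a b : G} (haC : a ∈ C) (hbC : b ∈ C) (hab : ¬ Commute a b) : False := by
  classical
  set W := (lin π).ker with hW
  have hodd : Odd p := hp.out.odd_of_ne_two (by omega)
  have hcm : ∀ w ∈ W, ∀ c ∈ C, ⁅w, c⁆ ∈ C := fun w _ c hc => by
    rw [commutatorElement_def]; exact mul_mem (hCn w c hc) (inv_mem hc)
  set z := ⁅a, b⁆ with hz
  have hzC : z ∈ C := hcm a (hCW haC) b hbC
  have hz1 : z ≠ 1 := fun e => hab (commutatorElement_eq_one_iff_mul_comm.mp e)
  have hzc : ∀ w ∈ W, Commute z w := hCc b hbC a (hCW haC)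
  have hanc : ¬ ∀ w ∈ W, Commute a w := fun h => hab (h b (hCW hbC))
  have hline : ∀ c ∈ W, c ^ p = 1 → (∀ w ∈ W, Commute c w) → c ∈ zpowers z := fun c hc hcp hcc =>
    central_mem_zpowers π hr (hCW haC) hc (hCW hzC) (hCp z hzC) (hCp a haC) hcp hz1 hzc hcc hanc
  have hzline : ∀ g : G, g * z * g⁻¹ ∈ zpowers z := fun g =>
    hline _ (hCW (hCn g z hzC)) (hCp _ (hCn g z hzC)) fun w hw => by
      have h := hzc _ (conj_mem_lin_ker π g⁻¹ hw)
      rw [inv_inv] at h
      have h2 := h.map (MulAut.conj g).toMonoidHom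
      simp only [MulEquiv.coe_toMonoidHom, MulAut.conj_apply] at h2
      convert h2 using 1
      group
  have hzG : ∀ g : G, Commute z g := fun g =>
    (mem_centralizer_singleton_iff.mp (eq_top_of_commutator_le π hπ hp3
      (H := centralizer ({z} : Set G)) (fun w hw => mem_centralizer_singleton_iff.mpr (hzc w hw).eq.symm)
      (commutator_le_centralizer_of_line' hzline) g)).symm
  -- elements commuting with `a` and `b`
  have haz : a ∉ zpowers z := by
    rintro ⟨i, hi⟩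
    have hi' : z ^ i = a := hi
    exact hanc fun w hw => hi' ▸ (hzc w hw).zpow_left i
  have hord : ∀ d : G, d ^ p = 1 → Commute d a → Commute d b → d ∈ zpowers z := by
    intro d hd hda hdb
    obtain ⟨i, j, hij⟩ := mem_sup_zpowers (hzG a)
      (mem_of_rank hr (hCp z hzC) (hCp a haC) hd hz1 haz (hzG a) (hzG d) hda.symm)
    by_cases hj : a ^ j = 1
    · rw [hij, hj, mul_one]; exact zpow_mem_zpowers z i
    exfalso
    have h1 : Commute (a ^ j) b := by
      have e : a ^ j = (z ^ i)⁻¹ * d := by rw [hij, inv_mul_cancel_left]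
      rw [e]
      exact (((hzG b).zpow_left i).inv_left).mul_left hdb
    obtain ⟨k, hk⟩ := mem_zpowers_zpow (hCp a haC) j hj
    have hk' : (a ^ j) ^ k = a := hk
    exact hab (hk' ▸ h1.zpow_left k)
  -- commutators with `C` are powers of `z`
  have hcz : ∀ w ∈ W, ∀ c ∈ C, ∃ i : ℤ, ⁅w, c⁆ = z ^ i := fun w hw c hc => by
    obtain ⟨i, hi⟩ := hline _ (hCW (hcm w hw c hc)) (hCp _ (hcm w hw c hc)) (hCc c hc w hw)
    exact ⟨i, hi.symm⟩
  have hlift : ∀ w ∈ W, ∃ r s : ℤ, Commute ((a ^ r * b ^ s)⁻¹ * w) a ∧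
      Commute ((a ^ r * b ^ s)⁻¹ * w) b := by
    intro w hw
    obtain ⟨i, hi⟩ := hcz w hw a haC
    obtain ⟨j, hj⟩ := hcz w hw b hbC
    refine ⟨j, -i, ?_⟩
    have hb' : b * a * b⁻¹ = z⁻¹ * a := by rw [hz, commutatorElement_def]; group
    have ha' : a * b * a⁻¹ = z * b := by rw [hz, commutatorElement_def]; group
    have hwa : w * a * w⁻¹ = z ^ i * a := by rw [← hi, commutatorElement_def]; group
    have hwb : w * b * w⁻¹ = z ^ j * b := by rw [← hj, commutatorElement_def]; group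
    have hconj : ∀ (g h : G) (m : ℤ), g * h * g⁻¹ = z ^ m * h → ∀ n : ℤ,
        g ^ n * h * (g ^ n)⁻¹ = z ^ (m * n) * h := by
      intro g h m hm n
      induction n using Int.induction_on with
      | zero => simp
      | succ n ih =>
        calc g ^ ((n : ℤ) + 1) * h * (g ^ ((n : ℤ) + 1))⁻¹
            = g ^ (n : ℤ) * (g * h * g⁻¹) * (g ^ (n : ℤ))⁻¹ := by group
          _ = z ^ m * (g ^ (n : ℤ) * h * (g ^ (n : ℤ))⁻¹) := by
              rw [hm, ← mul_assoc, ← ((hzG (g ^ (n : ℤ))).zpow_left m).eq]; group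
          _ = _ := by rw [ih, ← mul_assoc, ← zpow_add]; ring_nf
      | pred n ih =>
        have hm' : g⁻¹ * h * g = z ^ (-m) * h := by
          calc g⁻¹ * h * g = g⁻¹ * (z ^ (-m) * (z ^ m * h)) * g := by group
            _ = _ := by
              rw [← hm, ← mul_assoc g⁻¹, ← ((hzG g⁻¹).zpow_left (-m)).eq]; group
        calc g ^ (-(n : ℤ) - 1) * h * (g ^ (-(n : ℤ) - 1))⁻¹
            = g ^ (-(n : ℤ)) * (g⁻¹ * h * g) * (g ^ (-(n : ℤ)))⁻¹ := by group
          _ = z ^ (-m) * (g ^ (-(n : ℤ)) * h * (g ^ (-(n : ℤ)))⁻¹) := by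
              rw [hm', ← mul_assoc, ← ((hzG (g ^ (-(n : ℤ)))).zpow_left (-m)).eq]; group
          _ = _ := by rw [ih, ← mul_assoc, ← zpow_add]; ring_nf
    set c := a ^ j * b ^ (-i) with hc
    have hca : c * a * c⁻¹ = z ^ i * a := by
      have h2 : b ^ (-i) * a * (b ^ (-i))⁻¹ = z ^ i * a := by
        rw [hconj b a (-1) (by rw [zpow_neg_one]; exact hb') (-i)]; ring_nf
      calc c * a * c⁻¹ = a ^ j * (b ^ (-i) * a * (b ^ (-i))⁻¹) * (a ^ j)⁻¹ := by rw [hc]; group
        _ = _ := by rw [h2, ← mul_assoc, ← ((hzG (a ^ j)).zpow_left i).eq]; group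
    have hcb : c * b * c⁻¹ = z ^ j * b := by
      calc c * b * c⁻¹ = a ^ j * b * (a ^ j)⁻¹ := by rw [hc]; group
        _ = _ := by rw [hconj a b 1 (by rw [zpow_one]; exact ha') j, one_mul]
    constructor
    · refine mul_inv_eq_iff_eq_mul.mp ?_
      calc c⁻¹ * w * a * (c⁻¹ * w)⁻¹ = c⁻¹ * (w * a * w⁻¹) * c := by group
        _ = a := by rw [hwa, ← hca]; group
    · refine mul_inv_eq_iff_eq_mul.mp ?_
      calc c⁻¹ * w * b * (c⁻¹ * w)⁻¹ = c⁻¹ * (w * b * w⁻¹) * c := by group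
        _ = b := by rw [hwb, ← hcb]; group
  have hCab : ∀ c ∈ C, ∃ r s k : ℤ, c = a ^ r * b ^ s * z ^ k := by
    intro c hc
    obtain ⟨r, s, h1, h2⟩ := hlift c (hCW hc)
    obtain ⟨k, hk⟩ := hord _ (hCp _ (mul_mem (inv_mem (mul_mem (zpow_mem haC r) (zpow_mem hbC s))) hc)) h1 h2
    refine ⟨r, s, k, ?_⟩
    rw [show z ^ k = (a ^ r * b ^ s)⁻¹ * c from hk, mul_inv_cancel_left]
  set D := W ⊓ centralizer (C : Set G) with hD
  have hDmem : ∀ d ∈ W, Commute d a → Commute d b → d ∈ D := fun d hd h1 h2 =>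
    ⟨hd, mem_centralizer_iff.mpr fun c hc => by
      obtain ⟨r, s, k, rfl⟩ := hCab c hc
      exact (((h1.zpow_right r).mul_right (h2.zpow_right s)).mul_right
        ((hzG d).symm.zpow_right k)).symm.eq⟩
  have hDn : ∀ g : G, ∀ d ∈ D, g * d * g⁻¹ ∈ D := fun g d hd =>
    ⟨conj_mem_lin_ker π g hd.1, mem_centralizer_iff.mpr fun c hc => by
      have hc' := hCn g⁻¹ c hc
      rw [inv_inv] at hc'
      have h1 : Commute (g⁻¹ * c * g) d := mem_centralizer_iff.mp hd.2 _ hc'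
      have h2 := h1.map (MulAut.conj g).toMonoidHom
      simp only [MulEquiv.coe_toMonoidHom, MulAut.conj_apply] at h2
      convert h2.eq using 1 <;> group⟩
  have hDord : ∀ d ∈ D, d ^ p = 1 → d ∈ zpowers z := fun d hd hdp =>
    hord d hdp (mem_centralizer_iff.mp hd.2 a haC).symm (mem_centralizer_iff.mp hd.2 b hbC).symm
  have hDU : ∀ d ∈ D, d ∈ π.ker := fun d hd => (fix_all π ht htl hp3 hU (inf_le_left : D ≤ W)
    (fun e he => hDn t e he) (fun e he hep => by
      obtain ⟨k, rfl⟩ := hDord e he hep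
      exact ((hzG t).zpow_left k).symm) hd).2
  have hCD : ∀ w ∈ W, ∃ r s : ℤ, ∃ d ∈ D, w = a ^ r * b ^ s * d := fun w hw => by
    obtain ⟨r, s, h1, h2⟩ := hlift w hw
    exact ⟨r, s, _, hDmem _ (mul_mem (inv_mem (hCW (mul_mem (zpow_mem haC r) (zpow_mem hbC s)))) hw)
      h1 h2, (mul_inv_cancel_left _ _).symm⟩
  have htrab : ∀ r s : ℤ, tr π (a ^ r * b ^ s) = r • tr π a + s • tr π b := fun r s => by
    rw [tr_mul π (zpow_mem (hCW haC) r), tr_zpow π (hCW haC), tr_zpow π (hCW hbC)]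
  have hsurj : ∀ v, ∃ r s : ℤ, v = r • tr π a + s • tr π b := fun v => by
    obtain ⟨w, hw, rfl⟩ := tr_surjective π hπ v
    obtain ⟨r, s, d, hd, rfl⟩ := hCD w hw
    exact ⟨r, s, by
      rw [tr_mul π (hCW (mul_mem (zpow_mem haC r) (zpow_mem hbC s))), tr_of_mem_ker π (hDU d hd),
        add_zero, htrab]⟩
  have hzero : ∀ r s : ℤ, r • tr π a + s • tr π b = 0 → a ^ r = 1 ∧ b ^ s = 1 := fun r s h => by
    obtain ⟨⟨r', rfl⟩, ⟨s', rfl⟩⟩ := pair_injective hsurj h
    exact ⟨by rw [zpow_mul, zpow_natCast, hCp a haC, one_zpow],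
      by rw [zpow_mul, zpow_natCast, hCp b hbC, one_zpow]⟩
  have hCU : ∀ c ∈ C, tr π c = 0 → c ∈ zpowers z := by
    intro c hc h
    obtain ⟨r, s, k, rfl⟩ := hCab c hc
    rw [tr_mul π (hCW (mul_mem (zpow_mem haC r) (zpow_mem hbC s))), htrab, tr_zpow π (hCW hzC),
      show tr π z = 0 from ?_, smul_zero, add_zero] at h
    · obtain ⟨h1, h2⟩ := hzero r s h
      rw [h1, h2, one_mul, one_mul]
      exact zpow_mem_zpowers z k
    · exact tr_of_mem_ker π (mem_ker_of_commute π htl hp3 (hCW hzC) (hzG t).symm)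
  have hUD : ∀ u ∈ π.ker, u ∈ D := fun u hu => by
    obtain ⟨r, s, d, hd, rfl⟩ := hCD u (ker_le π hu)
    have h := tr_of_mem_ker π hu
    rw [tr_mul π (hCW (mul_mem (zpow_mem haC r) (zpow_mem hbC s))), tr_of_mem_ker π (hDU d hd),
      add_zero, htrab] at h
    obtain ⟨h1, h2⟩ := hzero r s h
    rw [h1, h2, one_mul, one_mul]
    exact hd
  -- the kernel is cyclic and central
  have hDp : IsPGroup p D := by
    rintro ⟨d, hd⟩
    obtain ⟨k, hk⟩ := isPGroup_lin_ker π hU ⟨d, hd.1⟩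
    have hk' : d ^ p ^ k = 1 := congrArg Subtype.val hk
    exact ⟨k, Subtype.ext hk'⟩
  have hDu : CfsgLib.UniqueOrderP.Uniq p D := by
    intro u v hu hv
    have hu' := hDord u u.2 (by rw [← Subgroup.coe_pow, ← hu, pow_orderOf_eq_one, Subgroup.coe_one])
    have hv' := hDord v v.2 (by rw [← Subgroup.coe_pow, ← hv, pow_orderOf_eq_one, Subgroup.coe_one])
    have e : zpowers (u : G) = zpowers z :=
      Subgroup.eq_of_le_of_card_ge (zpowers_le.mpr hu') (by
        rw [Nat.card_zpowers, Nat.card_zpowers, Subgroup.orderOf_coe, hu,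
          orderOf_eq_prime (hCp z hzC) hz1])
    rw [← e] at hv'
    obtain ⟨k, hk⟩ := hv'
    exact ⟨k, Subtype.ext (by simpa using hk)⟩
  haveI : IsCyclic D := (CfsgLib.UniqueOrderP.cyclic_or_quaternion hDp hDu).elim id
    fun h => absurd h.1 (by omega)
  obtain ⟨⟨d0, hd0⟩, hgen⟩ := IsCyclic.exists_generator (α := D)
  have hgen' : ∀ d ∈ D, d ∈ zpowers d0 := fun d hd => by
    obtain ⟨k, hk⟩ := hgen ⟨d, hd⟩
    exact ⟨k, (congrArg Subtype.val hk : _)⟩
  have hd0G : ∀ g : G, Commute d0 g := fun g =>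
    (mem_centralizer_singleton_iff.mp (eq_top_of_commutator_le π hπ hp3
      (H := centralizer ({d0} : Set G)) (fun w hw => mem_centralizer_singleton_iff.mpr (by
        obtain ⟨r, s, d, hd, rfl⟩ := hCD w hw
        have hc : Commute d0 (a ^ r * b ^ s) :=
          (mem_centralizer_iff.mp hd0.2 _ (mul_mem (zpow_mem haC r) (zpow_mem hbC s))).symm
        obtain ⟨k, rfl⟩ := hgen' d hd
        exact (hc.mul_right ((Commute.refl d0).zpow_right k)).eq.symm))
      (commutator_le_centralizer_of_line' fun g => hgen' _ (hDn g d0 hd0)) g)).symm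
  have hUc : ∀ u ∈ π.ker, ∀ g : G, Commute u g := fun u hu g => by
    obtain ⟨k, rfl⟩ := hgen' u (hUD u hu)
    exact (hd0G g).zpow_left k
  -- an inverted element of `C`
  obtain ⟨c0, hc0, hc0t⟩ : ∃ c0 ∈ C, tr π c0 = ![1, 0] := by
    obtain ⟨r, s, h⟩ := hsurj ![1, 0]
    exact ⟨a ^ r * b ^ s, mul_mem (zpow_mem haC r) (zpow_mem hbC s), by rw [htrab, h]⟩
  set c := c0⁻¹ * (t * c0 * t⁻¹) with hc
  have hcC : c ∈ C := mul_mem (inv_mem hc0) (hCn t c0 hc0)
  have hctr : tr π c = ![-2, 0] := by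
    rw [hc, tr_mul π (inv_mem (hCW hc0)), tr_inv π (hCW hc0), tr_conj_t π htl (hCW hc0), hc0t]
    funext i
    fin_cases i <;> norm_num
  have hct : t * c * t⁻¹ = c⁻¹ := by
    calc t * c * t⁻¹ = (t * c0 * t⁻¹)⁻¹ * ((t * t) * c0 * (t * t)⁻¹) := by rw [hc]; group
      _ = c⁻¹ := by rw [ht, inv_one, one_mul, mul_one, hc]; group
  -- the elements of order `p` over transvections
  let δ : Matrix.SpecialLinearGroup (Fin 2) (ZMod p) :=
    ⟨!![2, 0; 0, 2⁻¹], by simp [Matrix.det_fin_two_of, mul_inv_cancel₀ (two_ne_zero' hp3)]⟩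
  obtain ⟨h, hhK, hhl⟩ := cover π ht htl hp3 hπ hU δ
  obtain ⟨v, hvK, hvl⟩ := cover π ht htl hp3 hπ hU (upM 1)
  set u := h * v * h⁻¹ * (v ^ 4)⁻¹ with hu
  have hδ : δ * upM 1 = upM 1 ^ 4 * δ := Subtype.ext (by
    rw [upM_pow, Matrix.SpecialLinearGroup.coe_mul, Matrix.SpecialLinearGroup.coe_mul, upM_coe,
      upM_coe]
    show !![(2 : ZMod p), 0; 0, 2⁻¹] * _ = _ * !![(2 : ZMod p), 0; 0, 2⁻¹]
    have h22 : (2 : ZMod p) * 2⁻¹ = 1 := mul_inv_cancel₀ (two_ne_zero' hp3)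
    ext i j
    fin_cases i <;> fin_cases j <;> simp [Matrix.mul_apply, Fin.sum_univ_two]
    linear_combination (-2 : ZMod p) * h22)
  have huW : u ∈ W := by
    rw [hW, MonoidHom.mem_ker, hu, map_mul, map_mul, map_mul, map_inv, map_inv, map_pow, hhl, hvl,
      hδ, mul_inv_cancel_right, mul_inv_cancel]
  have huU : u ∈ π.ker := mem_ker_of_commute π htl hp3 huW
    (((hhK.mul_right hvK).mul_right hhK.inv_right).mul_right (hvK.pow_right 4).inv_right)
  have hvpU : v ^ p ∈ π.ker := mem_ker_of_commute π htl hp3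
    (by rw [MonoidHom.mem_ker, map_pow, hvl, upM_one_pow]) (hvK.pow_right p)
  have hvu : h * v * h⁻¹ = u * v ^ 4 := by rw [hu, inv_mul_cancel_right]
  have hpow : (v ^ 3 * u) ^ p = 1 := by
    have e := congrArg (· ^ p) hvu
    simp only [conj_pow] at e
    rw [← (hUc _ hvpU h).eq, mul_inv_cancel_right, (hUc u huU _).mul_pow, ← pow_mul, mul_comm 4,
      pow_mul] at e
    rw [((hUc u huU (v ^ 3)).symm).mul_pow, ← pow_mul, mul_comm 3, pow_mul]
    apply mul_left_cancel (a := v ^ p)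
    rw [mul_one]
    calc v ^ p * ((v ^ p) ^ 3 * u ^ p) = u ^ p * (v ^ p) ^ 4 := by
          rw [← mul_assoc, ← pow_succ', (hUc u huU _).pow_left p]
      _ = v ^ p := e.symm
  set w := v ^ 3 * u with hw
  have hwl : lin π w = upM 3 := by
    rw [hw, map_mul, map_pow, hvl, MonoidHom.mem_ker.mp huW, mul_one, upM_pow, mul_one]
    norm_num
  have hwt : Commute t w := (hvK.pow_right 3).mul_right (hUc u huU t).symm
  set e := w * c * w⁻¹ * c⁻¹ with he
  have hecC : w * c * w⁻¹ ∈ C := hCn w c hcC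
  have hetr : tr π e = 0 := by
    rw [he, tr_mul π (hCW hecC), tr_inv π (hCW hcC), tr_conj π w (hCW hcC), hwl, hctr, upM_coe,
      mulVec_two]
    funext i
    fin_cases i <;> simp
  obtain ⟨k, hk⟩ := hCU e (mul_mem hecC (inv_mem hcC)) hetr
  have heG : ∀ g : G, Commute e g := fun g => by
    rw [show e = z ^ k from hk.symm]; exact (hzG g).zpow_left k
  have e1 : w * c * w⁻¹ = e * c := by rw [he, inv_mul_cancel_right]
  have e2 : w * c⁻¹ * w⁻¹ = e * c⁻¹ := by
    calc w * c⁻¹ * w⁻¹ = (t * w * t⁻¹) * (t * c * t⁻¹) * (t * w * t⁻¹)⁻¹ := by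
          rw [hct, hwt.eq, mul_inv_cancel_right]
      _ = t * (e * c) * t⁻¹ := by rw [← e1]; group
      _ = e * c⁻¹ := by rw [← mul_assoc, ← (heG t).eq, mul_assoc, mul_assoc, ← mul_assoc t, hct]
  have e3 : e = 1 := by
    have h1 : (e * c)⁻¹ = e * c⁻¹ := by rw [← e2, ← e1]; group
    rw [mul_inv_rev, ← (heG c).inv_inv.eq] at h1
    exact eq_one_of_inv_eq hodd (by rw [show e = z ^ k from hk.symm]; exact zpow_pow_eq_one (hCp z hzC) k)
      (mul_right_cancel h1)
  rw [e3, one_mul] at e1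
  have hcw : Commute w c := mul_inv_eq_iff_eq_mul.mp e1
  have hcz' : c ∉ zpowers z := by
    rintro ⟨i, hi⟩
    have h0 : tr π c = 0 := by
      rw [show c = z ^ i from hi.symm, tr_zpow π (hCW hzC),
        tr_of_mem_ker π (mem_ker_of_commute π htl hp3 (hCW hzC) (hzG t).symm), smul_zero]
    rw [hctr] at h0
    exact two_ne_zero' hp3 (by simpa using congrFun h0 0)
  obtain ⟨i, j, hij⟩ := mem_sup_zpowers (hzG c)
    (mem_of_rank hr (hCp z hzC) (hCp c hcC) hpow hz1 hcz' (hzG c) (hzG w) hcw.symm)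
  have hwW : lin π w = 1 := by
    rw [hij]; exact MonoidHom.mem_ker.mp (mul_mem (zpow_mem (hCW hzC) i) (zpow_mem (hCW hcC) j))
  rw [hwl] at hwW
  have h3 := congrArg (fun M : Matrix.SpecialLinearGroup (Fin 2) (ZMod p) =>
    (M : Matrix (Fin 2) (Fin 2) (ZMod p)) 0 1) hwW
  simp [upM_coe] at h3
  have : ((3 : ℕ) : ZMod p) = 0 := by exact_mod_cast h3
  exact absurd (Nat.le_of_dvd three_pos ((ZMod.natCast_eq_zero_iff 3 p).mp this)) (by omega)

/-- A group of `p`-rank at most two maps onto `Qd(p)` with trivial `p`-kernel only. -/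
theorem ker_eq_bot (hp3 : 3 < p) (hπ : Function.Surjective π) (hU : IsPGroup p π.ker)
    (hr : Cfsg.PRankLE p 2 G) : π.ker = ⊥ := by
  have hp2 : p ≠ 2 := by omega
  obtain ⟨t, ht, htl⟩ := exists_involution π hp3 hπ hU
  set W := (lin π).ker with hW
  obtain ⟨x, hx, y, hy, hxo, hxc, hyx⟩ :=
    exists_noncyclic_omegaTwo hp2 (isPGroup_lin_ker π hU) (not_isCyclic_lin_ker π hπ)
  set C := (omegaTwo W p hp2).map W.subtype with hC
  have hCW : C ≤ W := by
    rintro _ ⟨c, -, rfl⟩; exact c.2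
  have hCp : ∀ c ∈ C, c ^ p = 1 := by
    rintro _ ⟨c, hc, rfl⟩; exact congrArg Subtype.val hc.1
  have hCc : ∀ c ∈ C, ∀ w ∈ W, ∀ w' ∈ W, Commute ⁅w, c⁆ w' := by
    rintro _ ⟨c, hc, rfl⟩ w hw w' hw'
    exact (congrArg Subtype.val (mem_center_iff.mp (hc.2 ⟨w, hw⟩) ⟨w', hw'⟩)).symm
  have hCn : ∀ g : G, ∀ c ∈ C, g * c * g⁻¹ ∈ C := by
    rintro g _ ⟨c, hc, rfl⟩
    exact ⟨MulAut.conjNormal g c, omegaTwo_map _ hc, MulAut.conjNormal_apply g c⟩
  have hxC : (x : G) ∈ C := ⟨x, hx, rfl⟩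
  have hyC : (y : G) ∈ C := ⟨y, hy, rfl⟩
  have hx1 : (x : G) ≠ 1 := fun e => hp.out.ne_one (by
    rw [← hxo, orderOf_eq_one_iff]; exact Subtype.ext e)
  have hxc' : ∀ w ∈ W, Commute (x : G) w := fun w hw =>
    (congrArg Subtype.val (mem_center_iff.mp hxc ⟨w, hw⟩)).symm
  by_cases hcen : ∀ c ∈ C, ∀ w ∈ W, Commute c w
  · refine central_case π ht htl hp3 hπ hU hr (hCW hxC) (hCW hyC) (hCp _ hxC) (hCp _ hyC) hx1 ?_
      hxc' (hcen _ hyC)
    rintro ⟨i, hi⟩
    exact hyx ⟨i, Subtype.ext (by simpa using hi)⟩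
  push Not at hcen
  obtain ⟨y', hy', w, hw, hyw⟩ := hcen
  by_cases hab : ∀ a ∈ C, ∀ b ∈ C, Commute a b
  · exact (abelian_case π ht htl hp3 hπ hU hr hCW hCn hCp hCc hab hxC hy' hx1 hxc'
      fun h => hyw (h w hw)).elim
  push Not at hab
  obtain ⟨a, ha, b, hb, hnab⟩ := hab
  exact (nonabelian_case π ht htl hp3 hπ hU hr hCW hCn hCp hCc ha hb hnab).elim

end CfsgLib.RankTwo
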