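import Cfsg.Prelude.Def_CaseTheorems
import Cfsg.Agent.Lib.Qd
import Cfsg.Agent.Lib.RigidAut
import Cfsg.Agent.Lib.PLocal.Elementary
import Cfsg.Agent.Lib.Linear.Generation
import Cfsg.Agent.Lib.RankTwo.OmegaTwo

/-! Extensions of `p`-groups by `Qd(p)`: the basic setting. -/

set_option autoImplicit false

namespace CfsgLib.RankTwo

open Subgroup Cfsg
open scoped commutatorElement Matrix

variable {G : Type*} [Group G] [Finite G] {p : ℕ} [hp : Fact p.Prime]

theorem mem_of_rank (hr : Cfsg.PRankLE p 2 G) {x y w : G} (hx : x ^ p = 1) (hy : y ^ p = 1)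
    (hw : w ^ p = 1) (hx1 : x ≠ 1) (hyx : y ∉ zpowers x) (hxy : Commute x y) (hxw : Commute x w)
    (hyw : Commute y w) : w ∈ zpowers x ⊔ zpowers y := by
  by_contra hnot
  set A := zpowers x ⊔ zpowers y with hA
  have hAel : IsElementaryAbelian p A := by
    refine CfsgLib.PLocal.el_sup (CfsgLib.PLocal.el_zpowers hx) (CfsgLib.PLocal.el_zpowers hy) ?_
    rintro _ ⟨i, rfl⟩ _ ⟨j, rfl⟩
    exact (hxy.zpow_zpow i j).eq
  have hAw : A ≤ centralizer ({w} : Set G) :=
    sup_le (zpowers_le.mpr (mem_centralizer_singleton_iff.mpr hxw.eq))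
      (zpowers_le.mpr (mem_centralizer_singleton_iff.mpr hyw.eq))
  set B := A ⊔ zpowers w with hB
  have hBel : IsElementaryAbelian p B := by
    refine CfsgLib.PLocal.el_sup hAel (CfsgLib.PLocal.el_zpowers hw) ?_
    rintro a ha _ ⟨j, rfl⟩
    exact ((show Commute a w from mem_centralizer_singleton_iff.mp (hAw ha)).zpow_right j).eq
  have hlt : ∀ {H K : Subgroup G} {n : ℕ}, IsPGroup p K → p ^ n ≤ Nat.card H → H < K →
      p ^ (n + 1) ≤ Nat.card K := by
    intro H K n hK hn hHK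
    obtain ⟨m, hm⟩ := IsPGroup.iff_card.mp hK
    have h1 : Nat.card H < Nat.card K := by
      by_contra hc
      exact hHK.ne (Subgroup.eq_of_le_of_card_ge hHK.le (not_lt.mp hc))
    rw [hm] at h1 ⊢
    exact Nat.pow_le_pow_right hp.out.pos
      (Nat.lt_of_not_le fun hc => absurd (h1.trans_le (le_rfl)) (not_lt.mpr
        ((Nat.pow_le_pow_right hp.out.pos hc).trans hn)))
  have hxc : p ^ 1 ≤ Nat.card (zpowers x) := by
    rw [Nat.card_zpowers, orderOf_eq_prime hx hx1, pow_one]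
  have h2 : p ^ 2 ≤ Nat.card A := hlt (CfsgLib.PLocal.el_isPGroup hAel) hxc
    (lt_of_le_of_ne le_sup_left fun e => hyx (e ▸ le_sup_right (a := zpowers x) (mem_zpowers y)))
  have h3 : p ^ 3 ≤ Nat.card B := hlt (CfsgLib.PLocal.el_isPGroup hBel) h2
    (lt_of_le_of_ne le_sup_left fun e => hnot (e ▸ le_sup_right (a := A) (mem_zpowers w)))
  exact absurd (h3.trans (hr B hBel.1 hBel.2)) (by
    exact not_le.mpr (Nat.pow_lt_pow_right hp.out.one_lt (by norm_num)))

theorem mem_sup_zpowers {x y g : G} (hxy : Commute x y) (hg : g ∈ zpowers x ⊔ zpowers y) :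
    ∃ i j : ℤ, g = x ^ i * y ^ j := by
  rw [← SetLike.mem_coe, Subgroup.coe_mul_of_left_le_normalizer_right] at hg
  · obtain ⟨_, ⟨i, rfl⟩, _, ⟨j, rfl⟩, rfl⟩ := hg
    exact ⟨i, j, rfl⟩
  · refine zpowers_le.mpr (mem_normalizer_iff.mpr fun h => ?_)
    constructor
    · rintro ⟨j, rfl⟩
      exact ⟨j, by rw [(hxy.zpow_right j).eq, mul_inv_cancel_right]⟩
    · rintro ⟨j, hj⟩
      refine ⟨j, ?_⟩
      have h2 := congrArg (fun a => x⁻¹ * a * x) hj
      simp only [mul_assoc, inv_mul_cancel_left, inv_mul_cancel, mul_one] at h2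
      rw [← h2, (hxy.zpow_right j).eq.symm]
      group

variable (π : G →* ↥(CfsgLib.Qd.aff (ZMod p)))

/-- linear part -/
def lin : G →* Matrix.SpecialLinearGroup (Fin 2) (ZMod p) := CfsgLib.Qd.blk.comp π

/-- translation part -/
def tr (w : G) : Fin 2 → ZMod p := CfsgLib.Qd.vec (π w)

theorem vec_one : CfsgLib.Qd.vec (1 : ↥(CfsgLib.Qd.aff (ZMod p))) = 0 := by
  funext i; fin_cases i <;> simp [CfsgLib.Qd.vec]

omit [Finite G] in
theorem tr_one : tr π 1 = 0 := by rw [tr, map_one, vec_one]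

omit [Finite G] in
theorem tr_mul {a : G} (ha : a ∈ (lin π).ker) (b : G) : tr π (a * b) = tr π a + tr π b := by
  rw [tr, map_mul, CfsgLib.Qd.vec_mul, show CfsgLib.Qd.blk (π a) = 1 from ha, add_comm]
  simp [tr]

omit [Finite G] in
theorem tr_inv {a : G} (ha : a ∈ (lin π).ker) : tr π a⁻¹ = - tr π a := by
  rw [eq_neg_iff_add_eq_zero, add_comm, ← tr_mul π ha, mul_inv_cancel, tr_one]

omit [Finite G] in
theorem tr_pow {a : G} (ha : a ∈ (lin π).ker) (n : ℕ) : tr π (a ^ n) = n • tr π a := by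
  induction n with
  | zero => simp [tr_one]
  | succ n ih => rw [pow_succ, tr_mul π (pow_mem ha n), ih, succ_nsmul]

omit [Finite G] in
theorem tr_zpow {a : G} (ha : a ∈ (lin π).ker) (n : ℤ) : tr π (a ^ n) = n • tr π a := by
  obtain ⟨m, rfl | rfl⟩ := n.eq_nat_or_neg
  · rw [zpow_natCast, tr_pow π ha, natCast_zsmul]
  · rw [zpow_neg, zpow_natCast, tr_inv π (pow_mem ha m), tr_pow π ha, neg_zsmul, natCast_zsmul]

omit [Finite G] in
theorem tr_conj (g : G) {w : G} (hw : w ∈ (lin π).ker) :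
    tr π (g * w * g⁻¹) = ((lin π g) : Matrix (Fin 2) (Fin 2) (ZMod p)) *ᵥ tr π w := by
  rw [tr, map_mul, map_mul, map_inv, CfsgLib.Qd.vec_conj _ hw]
  rfl

omit [Finite G] in
theorem mem_ker_of_tr {w : G} (hw : w ∈ (lin π).ker) (h : tr π w = 0) : w ∈ π.ker := by
  rw [MonoidHom.mem_ker, CfsgLib.Qd.ext_iff']
  exact ⟨by rw [map_one]; exact hw, by rw [vec_one]; exact h⟩

omit [Finite G] in
theorem tr_of_mem_ker {w : G} (hw : w ∈ π.ker) : tr π w = 0 := by
  rw [tr, hw, vec_one]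

omit [Finite G] in
theorem ker_le : π.ker ≤ (lin π).ker := fun w hw => by
  rw [MonoidHom.mem_ker, lin, MonoidHom.comp_apply, hw, map_one]

omit [Finite G] in
theorem tr_surjective (hπ : Function.Surjective π) (v : Fin 2 → ZMod p) :
    ∃ w ∈ (lin π).ker, tr π w = v := by
  obtain ⟨w, hw⟩ := hπ (CfsgLib.Qd.trl v)
  exact ⟨w, by rw [MonoidHom.mem_ker, lin, MonoidHom.comp_apply, hw, CfsgLib.Qd.blk_trl],
    by rw [tr, hw, CfsgLib.Qd.vec_trl]⟩

omit [Finite G] in
theorem lin_surjective (hπ : Function.Surjective π) : Function.Surjective (lin π) :=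
  CfsgLib.Qd.blk_surjective.comp hπ

/-- upper transvection -/
def upM (a : ZMod p) : Matrix.SpecialLinearGroup (Fin 2) (ZMod p) :=
  ⟨!![1, a; 0, 1], by simp [Matrix.det_fin_two_of]⟩

/-- lower transvection -/
def loM (a : ZMod p) : Matrix.SpecialLinearGroup (Fin 2) (ZMod p) :=
  ⟨!![1, 0; a, 1], by simp [Matrix.det_fin_two_of]⟩

theorem upM_coe (a : ZMod p) :
    (upM a : Matrix (Fin 2) (Fin 2) (ZMod p)) = !![1, a; 0, 1] := rfl

theorem loM_coe (a : ZMod p) :
    (loM a : Matrix (Fin 2) (Fin 2) (ZMod p)) = !![1, 0; a, 1] := rfl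

theorem upM_mul (a b : ZMod p) : upM a * upM b = upM (a + b) := Subtype.ext (by
  rw [Matrix.SpecialLinearGroup.coe_mul, upM_coe, upM_coe, upM_coe]
  ext i j; fin_cases i <;> fin_cases j <;> simp [Matrix.mul_apply, Fin.sum_univ_two, add_comm])

theorem upM_zero : upM (0 : ZMod p) = 1 := Subtype.ext (by
  rw [upM_coe, Matrix.SpecialLinearGroup.coe_one]
  ext i j; fin_cases i <;> fin_cases j <;> simp)

theorem upM_pow (a : ZMod p) (n : ℕ) : upM a ^ n = upM ((n : ZMod p) * a) := by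
  induction n with
  | zero => rw [pow_zero, Nat.cast_zero, zero_mul, upM_zero]
  | succ n ih => rw [pow_succ, ih, upM_mul]; push_cast; rw [add_mul, one_mul]

theorem upM_one_pow : upM (1 : ZMod p) ^ p = 1 := by
  rw [upM_pow, ZMod.natCast_self, zero_mul, upM_zero]

omit [Finite G] in
theorem mulVec_two (A : Matrix (Fin 2) (Fin 2) (ZMod p)) (v : Fin 2 → ZMod p) :
    A *ᵥ v = ![A 0 0 * v 0 + A 0 1 * v 1, A 1 0 * v 0 + A 1 1 * v 1] := by
  funext i
  fin_cases i <;> simp [Matrix.mulVec, dotProduct, Fin.sum_univ_two]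

/-- An invariant subgroup of the preimage of the translations covers none or all translations. -/
theorem irreducible (hπ : Function.Surjective π) {H : Subgroup G} (hH : H ≤ (lin π).ker)
    (hn : ∀ g : G, ∀ h ∈ H, g * h * g⁻¹ ∈ H) :
    H ≤ π.ker ∨ ∀ v, ∃ h ∈ H, tr π h = v := by
  by_cases h0 : ∀ h ∈ H, tr π h = 0
  · exact Or.inl fun h hh => mem_ker_of_tr π (hH hh) (h0 h hh)
  right
  push Not at h0
  obtain ⟨h₀, hh₀, hne⟩ := h0
  let S : AddSubgroup (Fin 2 → ZMod p) :=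
    { carrier := {v | ∃ h ∈ H, tr π h = v}
      zero_mem' := ⟨1, one_mem _, tr_one π⟩
      add_mem' := by
        rintro _ _ ⟨a, ha, rfl⟩ ⟨b, hb, rfl⟩
        exact ⟨a * b, mul_mem ha hb, tr_mul π (hH ha) b⟩
      neg_mem' := by
        rintro _ ⟨a, ha, rfl⟩
        exact ⟨a⁻¹, inv_mem ha, tr_inv π (hH ha)⟩ }
  have hinv : ∀ (A : Matrix.SpecialLinearGroup (Fin 2) (ZMod p)), ∀ v ∈ S,
      (A : Matrix (Fin 2) (Fin 2) (ZMod p)) *ᵥ v ∈ S := by
    rintro A _ ⟨h, hh, rfl⟩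
    obtain ⟨g, rfl⟩ := lin_surjective π hπ A
    exact ⟨g * h * g⁻¹, hn g h hh, tr_conj π g (hH hh)⟩
  have hsm : ∀ (c : ZMod p), ∀ v ∈ S, c • v ∈ S := by
    intro c v hv
    have : c • v = c.val • v := by rw [← Nat.cast_smul_eq_nsmul (ZMod p), ZMod.natCast_zmod_val]
    rw [this]
    exact nsmul_mem hv _
  obtain ⟨a, b, hab⟩ : ∃ a b : ZMod p, tr π h₀ = ![a, b] :=
    ⟨_, _, funext fun i => by fin_cases i <;> rfl⟩
  have hv : ![a, b] ∈ S := ⟨h₀, hh₀, hab⟩
  have h10 : ![(1 : ZMod p), 0] ∈ S := by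
    by_cases hb : b = 0
    · subst hb
      have ha : a ≠ 0 := fun ha => hne (by rw [hab, ha]; funext i; fin_cases i <;> rfl)
      have := hsm a⁻¹ _ hv
      convert this using 1
      funext i; fin_cases i <;> simp [inv_mul_cancel₀ ha]
    · have := hsm b⁻¹ _ (sub_mem (hinv (upM 1) _ hv) hv)
      convert this using 1
      funext i
      fin_cases i <;>
        (simp only [upM_coe, Pi.smul_apply, Pi.sub_apply, mulVec_two]; simp [inv_mul_cancel₀ hb])
  have h01 : ![(0 : ZMod p), 1] ∈ S := by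
    have := sub_mem (hinv (loM 1) _ h10) h10
    convert this using 1
    funext i
    fin_cases i <;> simp [loM_coe, mulVec_two]
  intro v
  have := add_mem (hsm (v 0) _ h10) (hsm (v 1) _ h01)
  exact (show v ∈ S by
    convert this using 1
    funext i
    fin_cases i <;> simp)

theorem commutator_SL2 (hp3 : 3 < p) :
    commutator (Matrix.SpecialLinearGroup (Fin 2) (ZMod p)) = ⊤ := by
  refine CfsgLib.Linear.Generation.commutator_SL_eq_top (Or.inr ⟨2, ?_, ?_⟩)
  · intro h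
    have : p ∣ 2 := (ZMod.natCast_eq_zero_iff 2 p).mp (by simpa using h)
    exact absurd (Nat.le_of_dvd two_pos this) (by omega)
  · intro h
    have h3 : ((3 : ℕ) : ZMod p) = 0 := by push_cast; linear_combination h
    exact absurd (Nat.le_of_dvd three_pos ((ZMod.natCast_eq_zero_iff 3 p).mp h3)) (by omega)

end CfsgLib.RankTwo
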